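import Cfsg.Agent.KZ.DatX.Gr
import Cfsg.Agent.Nodes.Coroot
import Cfsg.Agent.H931.KC.Alcove

/-!
# BZ / B3 : the lattice lemmas, definitions and boxes (helper14)

Everything lives on the root lattice `I → ℤ`; for a datum `X` take `cs := X.cs`, `h := X.h` (`X.act w = rep X.cs X.h w`).

* `Uf ε w₀` : the `ε`-eigenvectors of `w₀`; `Md m v` : `v ∈ m P`; `Nr`, `Tr`, `Rot`, `Lat`, `Rs`;
* `TyC` : the type of a root system; `BoxLat`.
-/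

set_option autoImplicit false
set_option linter.unusedSectionVars false

namespace Cfsg.Agent.BZ.B3

open Cfsg Cfsg.Lie Cfsg.Agent.Nodes.RGDChev Cfsg.Agent.Nodes.Coroot Cfsg.Agent.ChevalleyStructure.CoxeterGeom
  Cfsg.Agent.ChevalleyStructure.CoxeterGeomTypes Cfsg.Agent.Tits.Roots Cfsg.Agent.Nodes.Reps Cfsg.Agent.KZ.DatX

section defs

variable {I W : Type} [Fintype I] [DecidableEq I] [Group W] {M : CoxeterMatrix I} (cs : CoxeterSystem M W) {A : I → I → ℤ}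
  (h : IsCartan M A)

/-- the `ε`-eigenvectors of `w₀` -/
def Uf (ε : ℤ) (w₀ : W) : Set (I → ℤ) := {u | rep cs h w₀ u = ε • u}

/-- the fixed vectors of `w₀ π`, `π` a symmetry of the diagram -/
def Ug (π : Equiv.Perm I) (w₀ : W) : Set (I → ℤ) := {u | rep cs h w₀ (u ∘ π) = u}

/-- `v` lies in `m` times the weight lattice -/
def Md (A : I → I → ℤ) (m : ℤ) (v : I → ℤ) : Prop := ∀ i, m ∣ pairing A i v

/-- `w` acts on `U` as an `l`-element -/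
structure Nr (l : ℕ) (U : Set (I → ℤ)) (w : W) : Prop where
  mem : ∀ u ∈ U, rep cs h w u ∈ U
  pow : ∃ j, ∀ u ∈ U, rep cs h (w ^ l ^ j) u = u

/-- `w` is trivial on `U` -/
def Tr (U : Set (I → ℤ)) (w : W) : Prop := ∀ u ∈ U, rep cs h w u = u

/-- `ρ i j = e_i - e_j` are the roots of a subsystem `A_(l-1)` inside `U` which is rotated by `w`; together with the roots orthogonal
to `U` it is the system of the roots orthogonal to `U ∩ A^⊥` -/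
structure Rot (l : ℕ) (U : Set (I → ℤ)) (w : W) (ρ : ZMod l → ZMod l → I → ℤ) : Prop where
  rt : ∀ i j, i ≠ j → IsRoot cs h (ρ i j)
  mem : ∀ i j, ρ i j ∈ U
  add : ∀ i j k, ρ i j + ρ j k = ρ i k
  act : ∀ i j, rep cs h w (ρ i j) = ρ (i + 1) (j + 1)
  pr : ∀ i j k m, k ≠ m → cpr cs h (ρ i j) (ρ k m) = (if i = k then 1 else 0) - (if i = m then 1 else 0) -
    (if j = k then 1 else 0) + (if j = m then 1 else 0)
  lv : ∀ r, IsRoot cs h r → (∀ u ∈ U, (∀ i j, i ≠ j → cpr cs h u (ρ i j) = 0) → cpr cs h u r = 0) →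
    (∀ u ∈ U, cpr cs h u r = 0) ∨ ∃ i j, i ≠ j ∧ r = ρ i j

/-- **the lattice lemma** : one test vector -/
def Lat (l : ℕ) (U : Set (I → ℤ)) : Prop := ∃ x ∈ U, ∀ w, Nr cs h l U w → Md A l (rep cs h w x - x) →
  Tr cs h U w ∨ ∃ i ρ, Rot cs h l U (w ^ l ^ i) ρ

/-- the same without rotations -/
def Lat0 (l : ℕ) (U : Set (I → ℤ)) : Prop := ∃ x ∈ U, ∀ w, Nr cs h l U w → Md A l (rep cs h w x - x) → Tr cs h U w

/-- **the residual case** (`E₆`, `L = A₁³` or `D₄`) -/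
structure Rs (w₀ : W) : Prop where
  nine : ∃ x ∈ Uf cs h 1 w₀, ∀ w, Nr cs h 3 (Uf cs h 1 w₀) w → Md A 9 (rep cs h w x - x) → Tr cs h (Uf cs h 1 w₀) w
  cen : ∀ w, Nr cs h 3 (Uf cs h 1 w₀) w → ∀ u ∈ Uf cs h 1 w₀, Md A 3 (rep cs h w u - u)
  cyc : ∀ w w', Nr cs h 3 (Uf cs h 1 w₀) w → Nr cs h 3 (Uf cs h 1 w₀) w' →
    Tr cs h (Uf cs h 1 w₀) w ∨ ∃ i : ℕ, ∀ u ∈ Uf cs h 1 w₀, rep cs h w' u = rep cs h (w ^ i) u
  prj : ∀ v, ((1 + rep cs h w₀ ^ 2) * (1 + rep cs h w₀ ^ 3) * (1 + rep cs h w₀ ^ 4) : Module.End ℤ (I → ℤ)) v ∈ Uf cs h 1 w₀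

/-- the root system has the type `hp` -/
def TyC {C : ChevalleyDatum} {n : ℕ} {M' : CoxeterMatrix (Fin n)} (hp : IsType C n M') : Prop :=
  ∃ e : (I → ℤ) ≃+ (Fin n → ℤ), (∀ a, IsRoot cs h a ↔ IsRoot M'.toCoxeterSystem hp.isCartan (e a)) ∧
    ∀ a b, IsRoot cs h b → cpr cs h a b = cpr M'.toCoxeterSystem hp.isCartan (e a) (e b)

end defs

/-- a statement for all finite Weyl groups -/
def AllW (P : ∀ {I W : Type} [Fintype I] [DecidableEq I] [Group W] {M : CoxeterMatrix I} (_ : CoxeterSystem M W) {A : I → I → ℤ}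
    (_ : IsCartan M A), Prop) : Prop :=
  ∀ {I W : Type} [Fintype I] [DecidableEq I] [Group W] [Finite W] {M : CoxeterMatrix I} (cs : CoxeterSystem M W) {A : I → I → ℤ}
    (h : IsCartan M A), P cs h

/-- **the lattice lemmas** -/
structure BoxLat : Prop where
  e8 : AllW fun cs _ h => TyC cs h hpE8 → ∀ l, l = 3 ∨ l = 5 → ∀ ε, ε = 1 ∨ ε = -1 → ∀ w₀, Lat cs h l (Uf cs h ε w₀)
  e7 : AllW fun cs _ h => TyC cs h hpE7 → ∀ ε, ε = 1 ∨ ε = -1 → ∀ w₀, Lat cs h 3 (Uf cs h ε w₀)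
  f4 : AllW fun cs _ h => TyC cs h hpF4 → ∀ ε, ε = 1 ∨ ε = -1 → ∀ w₀, Lat cs h 3 (Uf cs h ε w₀)
  e6o : AllW fun cs _ h => TyC cs h hpE6 → ∀ w₀, Lat cs h 3 (Uf cs h (-1) w₀)
  e6i : AllW fun cs _ h => TyC cs h hpE6 → ∀ w₀, Lat cs h 3 (Uf cs h 1 w₀) ∨ Rs cs h w₀
  g2 : AllW fun cs _ h => TyC cs h hpG2 → ∀ ε w₀, Lat0 cs h 3 (Uf cs h ε w₀)
  d4 : AllW fun {I} _ _ _ _ _ cs A h => (∀ v, Md A 3 v → ∀ i, 3 ∣ v i) → ∀ π : Equiv.Perm I, (∀ i j, A (π i) (π j) = A i j) →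
    (∃ i j, ∀ k, π.SameCycle i k ∨ π.SameCycle j k) → ∀ w₀, Lat0 cs h 3 (Ug cs h π w₀)

end Cfsg.Agent.BZ.B3
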